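import Cfsg.Agent.N2.Cl.D4.Main
import Cfsg.Agent.N2.Cl.D4.LocO
import Cfsg.Agent.N2.Cl.D4.Loc2
import Cfsg.Agent.N2.Cl.D4.G44
import Cfsg.Agent.N2.Cl.D4.T44
import Cfsg.Agent.N2.Cl.D4.Ex
import Cfsg.Agent.N2.Cl.D4.G2
import Cfsg.Agent.N2.Cl.D4.P2
import Cfsg.Agent.N2.Cl.D4.GI2
import Cfsg.Agent.N2.Cl.D4.GN3
import Cfsg.Agent.N2.Cl.D4.GN4
import Cfsg.Agent.N2.Cl.D4.LQ
import Cfsg.Agent.N2.Cl.D4.QA
import Cfsg.Agent.N2.Cl.D4.Lie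
import Cfsg.Agent.N2.Cl.D4.Psi
import Cfsg.Agent.N2.Cl.D4.SubW
import Cfsg.Agent.N2.Cl.D4.Fix
import Cfsg.Agent.N2.Cl.D4.Irr
import Cfsg.Agent.N2.Cl.D4.B44
import Cfsg.Agent.N2.Cl.D4.K
import Cfsg.Agent.N2.Cl.D4.Cen

/-!
# N2 (S3519), `PΩ₈⁺(q)` with triality: assembly (helper61)
-/

set_option autoImplicit false

namespace Cfsg.Agent.N2C.D4

open Cfsg.Agent.ClassicalGeometry.OrthSemi Cfsg.Agent.SB.D4

theorem boxLoc : BoxLoc := by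
  intro lm sig F _ _ A Γ M₁ M₂ X h h0 hi hc
  have := simple8 (F := F)
  have := finite8 (F := F)
  obtain ⟨E, r, -, -, k⟩ := N2.G2.exists_loc hi h0 hc
  have hm : ∀ H : Subgroup (G8 F), H ≠ ⊤ → N2.Inv Γ H → ∀ g ∈ H, MulAut.conj g ∈ Γ :=
    fun H h1 h2 g hg => (h.mi.conj g).2 (h.le_of_inv h1 h2 hg)
  have y : Cy Γ E r := ⟨hm, h.e1.imp fun _ k => ⟨k.1, _, k.2⟩, h.e2.imp fun _ k => ⟨k.1, _, k.2⟩, k.ne_bot, k.inv, k.min,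
    k.comm, k.prime, k.pow, fun e => k.ne_bot (h.np E (h.le_of_inv (fun e => noncomm8 (F := F)
      ⟨⟨fun a b => k.comm a (e.ge trivial) b (e.ge trivial)⟩⟩) k.inv) (fun a ha => k.inv _ ((h.mi.conj a).2 ha))
      ((CharP.ringChar_of_prime_eq_zero k.prime e).symm ▸ N2.G2.ea_pgroup k.toEA))⟩
  rcases k.prime.eq_two_or_odd' with rfl | ho
  exacts [loc2 lm sig h y, locO lm h y ho]

/-- **the row of `PΩ₈⁺(q)`** -/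
theorem boxD4 (w : WRes) : BoxD4 :=
  boxD4_of ⟨boxG44, boxT44, boxSg, boxEx3, boxEx6, boxG2, boxJE, boxP2, boxP2K, boxGI2, boxGN3, boxGN4, boxLQ, boxQA, boxLie,
    boxPsi, boxSubW⟩ ⟨boxSig, boxLoc, boxFix, boxIrr, box35, box44, boxK, boxQ, boxCen, boxRes⟩ w

end Cfsg.Agent.N2C.D4
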