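import Cfsg.Agent.N2.Cl.D4.Cy2

/-!
# N2 (S3519), `PΩ₈⁺(q)` with triality: elementary abelian `2`-groups with blocks of dimension two or one (helper46)
-/

set_option autoImplicit false
set_option linter.unusedSectionVars false

namespace Cfsg.Agent.N2C.D4

open QuadraticMap Module Cfsg.Agent.LieClassical.QuadForms Cfsg.Agent.LieClassical.OrthCore
  Cfsg.Agent.LieClassical.OrthTrans Cfsg.Agent.ClassicalGeometry.OrthSemi Cfsg.Agent.ClassicalGeometry.OrthAut1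
  Cfsg.Agent.ClassicalGeometry.TrialityOct Cfsg.Agent.ClassicalGeometry.Triality
  Cfsg.Agent.H989.OutOrth.Basic Cfsg.Agent.H989.OutOrth.Tri Cfsg.Agent.SB.D4

namespace L2b

variable {F : Type} [Field F] [Fintype F]

/-- the blocks with their characters -/
structure Bk (Γ : Subgroup (MulAut (G8 F))) (X : Subgroup (G8 F)) {ι : Type} (P : ι → Submodule F (V8 F))
    (ε : E8 F → ι → F) : Prop where
  dec : Dec (Q8 F) P
  prm : Prm (LL Γ) P
  ne : ∀ i, P i ≠ ⊥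
  eig : ∀ a : E8 F, (a : G8 F) ∈ X → ∀ i, ∀ v ∈ P i, a.1 v = ε a i • v
  sq : ∀ a : E8 F, (a : G8 F) ∈ X → ∀ i, ε a i * ε a i = 1
  mem : ∀ i v, (∀ a : E8 F, (a : G8 F) ∈ X → a.1 v = ε a i • v) → v ∈ P i
  all : ∀ v, v ≠ 0 → (∀ a : E8 F, (a : G8 F) ∈ X → ∃ l : F, a.1 v = l • v) → ∃ i, v ∈ P i

variable {A : Subgroup (G8 F)} {Γ : Subgroup (MulAut (G8 F))} {M₁ M₂ : Gam (Q8 F)} {X : Subgroup (G8 F)}

theorem exists_bk (y : Cy Γ X 2) (hx : ∀ a : E8 F, (a : G8 F) ∈ X → a * a = 1) {ι : Type} {f : ι → (RB.Y2 X → F)}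
    (h0 : ∀ k, Bl (RB.Y2 X) (f k) ≠ ⊥) (hD : Dec (Q8 F) (Bl (RB.Y2 X) ∘ f)) (hP : Prm (LL Γ) (Bl (RB.Y2 X) ∘ f)) :
    ∃ ε, Bk Γ X (Bl (RB.Y2 X) ∘ f) ε := by
  classical
  refine ⟨fun a i => if h : (a : G8 F) ∈ X then f i ⟨a.1, a, h, rfl⟩ / 2 else 0, hD, hP, h0, fun a ha i v hv => ?_,
    fun a ha i => ?_, fun i v hv => (Rb.mem_Bl2 y hx).2 ?_, fun v hv0 hv => ?_⟩
  · rw [dif_pos ha]
    exact Rb.eig2 y hx hv ha
  · obtain ⟨v, hv, hv0⟩ := (Submodule.ne_bot_iff _).1 (h0 i)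
    rw [dif_pos ha]
    exact Rb.eig2' y hx hv hv0 ha
  · rintro ⟨_, a, ha, rfl⟩
    have h1 := hv a ha
    rwa [dif_pos (show (a : G8 F) ∈ X from ha)] at h1
  · have h1 : ∀ g : RB.Y2 X, ∃ l : F, g.1 v = l • v := by
      rintro ⟨_, a, ha, rfl⟩
      exact hv a ha
    choose l hl using h1
    have h2 : v ∈ Bl (RB.Y2 X) fun g => l g * 2 := (Rb.mem_Bl2 y hx).2 fun g => by
      rw [mul_div_cancel_right₀ _ y.two_ne, hl]
    by_contra hc
    push Not at hc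
    exact hv0 (hD.perp nondeg8' fun i w hw => (Rb.dec2 y hx).orth _ (f i) (fun e => hc i (e ▸ h2 : v ∈ Bl _ (f i))) v h2 w hw)

theorem ne_top (y : Cy Γ X 2) : X ≠ ⊤ := fun e => noncomm8 ⟨⟨fun a b => y.comm a (e ▸ trivial) b (e ▸ trivial)⟩⟩

theorem dec_sum {ι : Type} [Fintype ι] {P : ι → Submodule F (V8 F)} (hD : Dec (Q8 F) P) (v : V8 F) :
    ∃ w : ι → V8 F, (∀ i, w i ∈ P i) ∧ ∑ i, w i = v := by
  classical
  refine Submodule.iSup_induction P (motive := fun v => ∃ w : ι → V8 F, (∀ i, w i ∈ P i) ∧ ∑ i, w i = v)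
    (hD.span ▸ Submodule.mem_top) (fun i x hx => ⟨Pi.single i x, fun j => ?_, by simp⟩) ⟨0, fun _ => zero_mem _, by simp⟩
    fun _ _ ⟨w, h1, h2⟩ ⟨w', h3, h4⟩ => ⟨w + w', fun i => add_mem (h1 i) (h3 i), by
      rw [← h2, ← h4, ← Finset.sum_add_distrib]; rfl⟩
  by_cases hj : j = i
  · rwa [hj, Pi.single_eq_same]
  · rw [Pi.single_eq_of_ne hj]
    exact zero_mem _

namespace Bk

variable {ι : Type} {P : ι → Submodule F (V8 F)} {ε : E8 F → ι → F} (B : Bk Γ X P ε)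
include B

theorem nd (i : ι) : Nd (Q8 F) (P i) := B.dec.nd nondeg8' i

theorem sep {i j : ι} (hij : i ≠ j) : ∃ a : E8 F, (a : G8 F) ∈ X ∧ ε a j = -ε a i := by
  by_contra hc
  push Not at hc
  obtain ⟨v, hv, hv0⟩ := (Submodule.ne_bot_iff _).1 (B.ne j)
  refine hv0 (B.nd j v hv (B.dec.orth i j hij v (B.mem i v fun a ha => ?_)))
  rw [B.eig a ha j v hv, (mul_self_eq_mul_self_iff.1 ((B.sq a ha j).trans (B.sq a ha i).symm)).resolve_right (hc a ha)]

theorem mul {a b : E8 F} (ha : (a : G8 F) ∈ X) (hb : (b : G8 F) ∈ X) (i : ι) : ε (a * b) i = ε a i * ε b i := by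
  obtain ⟨v, hv, hv0⟩ := (Submodule.ne_bot_iff _).1 (B.ne i)
  refine smul_left_injective F hv0 ?_
  show ε (a * b) i • v = (ε a i * ε b i) • v
  rw [← B.eig (a * b) (mul_mem ha hb) i v hv, e8_mul, B.eig b hb i v hv, map_smul, B.eig a ha i v hv, smul_smul, mul_comm]

theorem one (i : ι) : ε 1 i = 1 := by
  have h1 := B.mul (one_mem X : ((1 : E8 F) : G8 F) ∈ X) (one_mem X : ((1 : E8 F) : G8 F) ∈ X) i
  rwa [mul_one, B.sq 1 (one_mem X)] at h1

theorem eig_conj (M : Gam (Q8 F)) {b : E8 F} (hb : ((conjE (Q8 F) M b : E8 F) : G8 F) ∈ X) {i : ι} {v : V8 F}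
    (hv : v ∈ P i) : ∃ l : F, b.1 (M⁻¹.1 v) = l • M⁻¹.1 v := by
  have h1 := conjE_eig (M := M⁻¹) (B.eig _ hb i v hv)
  rwa [conjE_inv_conjE] at h1

theorem pm_mem (h : Cx A Γ M₁ M₂) (y : Cy Γ X 2) {i j : ι} {v w : V8 F} (hv : v ∈ P i) (hw : w ∈ P j)
    (h0 : Q8 F (pm (M₁⁻¹.1 v) (M₂⁻¹.1 w)) ≠ 0) : ∃ k, pm (M₁⁻¹.1 v) (M₂⁻¹.1 w) ∈ P k := by
  refine B.all _ (fun e => h0 (by rw [e, map_zero])) fun a ha => ?_
  obtain ⟨b, c, t⟩ := exists_T3 a
  obtain ⟨l, hl⟩ := B.eig_conj M₁ ((h.sym1 y.inv t).1 ha) hv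
  obtain ⟨l', hl'⟩ := B.eig_conj M₂ ((h.sym2 y.inv t).1 ha) hw
  exact ⟨l * l', by rw [t, hl, hl', smul_pm, pm_smul, smul_smul]⟩

/-- a frame of non-singular points with different norms -/
theorem good_fr (lm : Lm) (sig : BoxSig) (h : Cx A Γ M₁ M₂) (y : Cy Γ X 2) (e : Fin 8 → V8 F) (he : ∀ i, Q8 F (e i) ≠ 0)
    (ho : ∀ i j, i ≠ j → polar (Q8 F) (e i) (e j) = 0) (hin : ∀ i, ∃ k, e i ∈ P k)
    (hall : ∀ k, ∀ v ∈ P k, Q8 F v ≠ 0 → ∃ (j : Fin 8) (c : F), v = c • e j)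
    (hns : ∃ i j, ¬ IsSquare (Q8 F (e i) * Q8 F (e j))) : FP3.Good A := by
  obtain ⟨z, h1, h2, h3⟩ := sig F A Γ M₁ M₂ e h y.two_ne he ho (fun M hM i => by
    obtain ⟨k, hk⟩ := hin i
    obtain ⟨j, hj⟩ := B.prm M hM k
    exact hall j _ (hj _ hk) (Q_ne M (he i))) (fun i j => by
    obtain ⟨k, hk⟩ := hin i
    obtain ⟨k', hk'⟩ := hin j
    have h0 : Q8 F (pm (M₁⁻¹.1 (e i)) (M₂⁻¹.1 (e j))) ≠ 0 := by
      rw [norm_pm]
      exact mul_ne_zero (Q_ne _ (he i)) (Q_ne _ (he j))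
    obtain ⟨l, hl⟩ := B.pm_mem h y hk hk' h0
    exact hall l _ hl h0) hns
  exact h.good_inv lm.g44 y.two_ne h1 h2 h3

/-- all blocks have the same type -/
theorem aniso (y : Cy Γ X 2) {i j : ι} (hj : Aniso (Q8 F) (P j)) : Aniso (Q8 F) (P i) := fun w hw h0 => by
  obtain ⟨z, hz, hz'⟩ := (B.nd i).exists_nonsing (B.ne i)
  obtain ⟨z', hw', hw''⟩ := (B.nd j).exists_nonsing (B.ne j)
  obtain ⟨M, hM⟩ := y.sym1
  have hu := Q_ne M⁻¹ hz'
  refine ((pl_injective hu).comp ((pl_injective hw'').comp ((pr_injective hz').comp (pr_injective hu))))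
    ((hj (pm (M⁻¹.1 z) (pm z' (pm (pm w (M⁻¹.1 z)) z))) (B.mem j _ fun a ha => ?_) ?_).trans (by simp))
  · obtain ⟨b, c, t⟩ := exists_T3 a
    obtain ⟨l, hl⟩ := B.eig_conj M ((hM a b c t).1 ha) hz
    rw [t, t.rot.rot, t.rot, t.rot.rot, B.eig a ha i z hz, B.eig a ha j z' hw', B.eig a ha i w hw, hl]
    simp only [smul_pm, pm_smul, smul_smul]
    congr 1
    linear_combination ε a j * (l * l) * B.sq a ha i + ε a j * eig_sq hu hl
  · rw [norm_pm, norm_pm, norm_pm, norm_pm, h0]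
    ring

end Bk

/-! ### eight lines -/

theorem d1' (lm : Lm) (sig : BoxSig) (h : Cx A Γ M₁ M₂) (y : Cy Γ X 2) (hx : ∀ a : E8 F, (a : G8 F) ∈ X → a * a = 1)
    {P : Fin 8 → Submodule F (V8 F)} {ε : E8 F → Fin 8 → F} (B : Bk Γ X P ε) (hd : ∀ k, finrank F (P k) = 1) :
    FP3.Good A := by
  choose e he he' using fun k => (B.nd k).exists_nonsing (B.ne k)
  have ho : ∀ i j, i ≠ j → polar (Q8 F) (e i) (e j) = 0 := fun i j hij => B.dec.orth i j hij _ (he i) _ (he j)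
  by_cases hns : ∃ i j, ¬ IsSquare (Q8 F (e i) * Q8 F (e j))
  · refine B.good_fr lm sig h y e he' ho (fun i => ⟨i, he i⟩) (fun k v hv _ => ?_) hns
    obtain ⟨c, hc⟩ := (finrank_eq_one_iff_of_nonzero' (⟨e k, he k⟩ : P k)
      (fun h0 => he' k (by rw [show e k = 0 from congrArg Subtype.val h0, map_zero]))).1 (hd k) ⟨v, hv⟩
    exact ⟨k, c, (congrArg Subtype.val hc).symm⟩
  push Not at hns
  choose s hs using fun i => hns i 0
  have hs0 : ∀ i, s i ≠ 0 := fun i e0 => mul_ne_zero (he' i) (he' 0) (by rw [hs, e0, mul_zero])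
  have h1 : ∀ i, Q8 F ((Q8 F (e 0) / s i) • e i) = Q8 F (e 0) := fun i => by
    have h2 := hs0 i
    rw [QuadraticMap.map_smul, smul_eq_mul]
    field_simp
    linear_combination Q8 F (e 0) * hs i
  have h2 : ∀ i, (Q8 F (e 0) / s i) • e i ∈ P i := fun i => (P i).smul_mem _ (he i)
  refine lm.gn4 F A X (fun i => (Q8 F (e 0) / s i) • e i) y.two_ne (by rw [h1]; exact he' 0) (fun i => by rw [h1, h1])
    (fun i j hij => B.dec.orth i j hij _ (h2 i) _ (h2 j)) (fun a ha => ⟨fun i => ?_, ?_⟩) (fun i j hij => ?_)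
    (h.eq_norm y.ne (ne_top y) y.inv)
  · rw [B.eig a ha i _ (h2 i)]
    rcases sq_cases (B.sq a ha i) with k | k <;> rw [k]
    exacts [Or.inl (one_smul F _), Or.inr (neg_one_smul F _)]
  · by_cases hn : ∃ d, Sc a d
    · exact Or.inl hn
    · exact Or.inr (Rb.ts2 y hx ha (not_exists.1 hn) (one_mul 1)).1
  · obtain ⟨a, ha, h3⟩ := B.sep hij
    exact ⟨a, ha, ε a i, B.eig a ha i _ (h2 i), h3 ▸ B.eig a ha j _ (h2 j)⟩

/-! ### four planes -/

theorem all_signs (R : F → F → Prop) (h0 : R 1 1) (hm : ∀ s t s' t', R s t → R s' t' → R (s * s') (t * t'))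
    (h1 : R (-1) 1 ∨ R (-1) (-1)) (h2 : R 1 (-1) ∨ R (-1) (-1)) (h3 : R 1 (-1) ∨ R (-1) 1) {s t : F} (hs : s * s = 1)
    (ht : t * t = 1) : R s t := by
  have k1 : R (-1) 1 → R 1 (-1) → R (-1) (-1) := fun a b => by simpa using hm _ _ _ _ a b
  have k2 : R (-1) 1 → R (-1) (-1) → R 1 (-1) := fun a b => by simpa using hm _ _ _ _ a b
  have k3 : R 1 (-1) → R (-1) (-1) → R (-1) 1 := fun a b => by simpa using hm _ _ _ _ a b
  rcases sq_cases hs with rfl | rfl <;> rcases sq_cases ht with rfl | rfl <;> tauto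

theorem prod_cases {η : Fin 4 → F} (h : ∀ i, η i * η i = 1) :
    η 0 * η 1 * η 2 * η 3 = 1 ∨ ∃ (l : Fin 4) (e : F), e * e = 1 ∧ η l = -e ∧ ∀ i, i ≠ l → η i = e := by
  have key : ∀ (l : Fin 4) (e : F), e * e = 1 → η = Function.update (fun _ => e) l (-e) →
      ∃ (l : Fin 4) (e : F), e * e = 1 ∧ η l = -e ∧ ∀ i, i ≠ l → η i = e := fun l e he h1 =>
    ⟨l, e, he, by rw [h1, Function.update_self], fun i hi => by rw [h1, Function.update_of_ne hi]⟩
  have k : ∀ l : Fin 4, (η = Function.update (fun _ => 1) l (-1) ∨ η = Function.update (fun _ => -1) l (- -1)) →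
      ∃ (l : Fin 4) (e : F), e * e = 1 ∧ η l = -e ∧ ∀ i, i ≠ l → η i = e := fun l h1 =>
    h1.elim (key l 1 (one_mul 1)) (key l (-1) (by ring))
  have e : η = ![η 0, η 1, η 2, η 3] := by
    funext i
    fin_cases i <;> rfl
  rcases sq_cases (h 0) with h0 | h0 <;> rcases sq_cases (h 1) with h1 | h1 <;> rcases sq_cases (h 2) with h2 | h2 <;>
    rcases sq_cases (h 3) with h3 | h3 <;> rw [h0, h1, h2, h3] at e ⊢ <;>
    first
    | (left; ring1)
    | (right; refine k 0 (Or.inl (e.trans ?_)); funext i; fin_cases i <;> simp; done)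
    | (right; refine k 1 (Or.inl (e.trans ?_)); funext i; fin_cases i <;> simp; done)
    | (right; refine k 2 (Or.inl (e.trans ?_)); funext i; fin_cases i <;> simp; done)
    | (right; refine k 3 (Or.inl (e.trans ?_)); funext i; fin_cases i <;> simp; done)
    | (right; refine k 0 (Or.inr (e.trans ?_)); funext i; fin_cases i <;> simp; done)
    | (right; refine k 1 (Or.inr (e.trans ?_)); funext i; fin_cases i <;> simp; done)
    | (right; refine k 2 (Or.inr (e.trans ?_)); funext i; fin_cases i <;> simp; done)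
    | (right; refine k 3 (Or.inr (e.trans ?_)); funext i; fin_cases i <;> simp)

section planes

variable (y : Cy Γ X 2) (hx : ∀ a : E8 F, (a : G8 F) ∈ X → a * a = 1) {P : Fin 4 → Submodule F (V8 F)}
  {ε : E8 F → Fin 4 → F} (B : Bk Γ X P ε) (hd : ∀ k, finrank F (P k) = 2)
include y hx B hd

theorem prod_one {a : E8 F} (ha : (a : G8 F) ∈ X) : ε a 0 * ε a 1 * ε a 2 * ε a 3 = 1 := by
  refine (prod_cases (B.sq a ha)).resolve_right ?_
  rintro ⟨l, e, he, h1, h2⟩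
  have h3 : prp (Q8 F) (P l) ≤ Eg a e := fun v hv => by
    obtain ⟨w, hw, rfl⟩ := dec_sum B.dec v
    have h4 : w l = 0 := B.nd l _ (hw l) fun z hz => by
      have h5 : polarBilin (Q8 F) z (∑ i, w i) = 0 := (polar_comm _ _ _).trans (mem_prp.1 hv z hz)
      rw [map_sum, Finset.sum_eq_single (f := fun i => polarBilin (Q8 F) z (w i)) l
        (fun i _ hi => B.dec.orth l i hi.symm z hz _ (hw i)) (by simp)] at h5
      exact (polar_comm _ _ _).trans h5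
    refine Submodule.sum_mem _ fun i _ => ?_
    by_cases hi : i = l
    · rw [hi, h4]
      exact zero_mem _
    · rw [mem_Eg, B.eig a ha i _ (hw i), h2 i hi]
  have h4 := Submodule.finrank_mono h3
  have h5 := dim_prp (P l)
  rw [(Rb.ts2 y hx ha (fun d hd' => ?_) he).1] at h4
  · rw [hd] at h5
    omega
  have h6 : ∀ i, ε a i = d := fun i => by
    obtain ⟨v, hv, hv0⟩ := (Submodule.ne_bot_iff _).1 (B.ne i)
    exact smul_left_injective F hv0 ((B.eig a ha i v hv).symm.trans (hd' v))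
  obtain ⟨i, hi⟩ := exists_ne l
  have h7 := h2 i hi
  rw [h6] at h1 h7
  exact mul_ne_zero y.two_ne (left_ne_zero_of_mul_eq_one he) (by linear_combination h1 - h7)

theorem exists_sign {η : Fin 4 → F} (h1 : ∀ i, η i * η i = 1) (h2 : η 0 * η 1 * η 2 * η 3 = 1) :
    ∃ a : E8 F, (a : G8 F) ∈ X ∧ ∃ d : F, d * d = 1 ∧ ∀ i, η i = d * ε a i := by
  have sq : ∀ {s t : F}, s * s = 1 → t * t = 1 → s * t * (s * t) = 1 := fun {s t} hs ht => by
    linear_combination t * t * hs + ht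
  obtain ⟨a, ha, k1, k2⟩ := all_signs (fun s t => ∃ a : E8 F, (a : G8 F) ∈ X ∧ ε a 0 * ε a 1 = s ∧ ε a 0 * ε a 2 = t)
    ⟨1, one_mem X, by rw [B.one, B.one, one_mul], by rw [B.one, B.one, one_mul]⟩
    (by
      rintro _ _ _ _ ⟨a, ha, rfl, rfl⟩ ⟨b, hb, rfl, rfl⟩
      exact ⟨a * b, mul_mem ha hb, by rw [B.mul ha hb, B.mul ha hb]; ring, by rw [B.mul ha hb, B.mul ha hb]; ring⟩)
    (by
      obtain ⟨a, ha, k⟩ := B.sep (i := 0) (j := 1) (by decide)
      exact (sq_cases (sq (B.sq a ha 0) (B.sq a ha 2))).imp (fun k' => ⟨a, ha, by rw [k, mul_neg, B.sq a ha], k'⟩)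
        fun k' => ⟨a, ha, by rw [k, mul_neg, B.sq a ha], k'⟩)
    (by
      obtain ⟨a, ha, k⟩ := B.sep (i := 0) (j := 2) (by decide)
      exact (sq_cases (sq (B.sq a ha 0) (B.sq a ha 1))).imp (fun k' => ⟨a, ha, k', by rw [k, mul_neg, B.sq a ha]⟩)
        fun k' => ⟨a, ha, k', by rw [k, mul_neg, B.sq a ha]⟩)
    (by
      obtain ⟨a, ha, k⟩ := B.sep (i := 1) (j := 2) (by decide)
      exact (sq_cases (sq (B.sq a ha 0) (B.sq a ha 1))).imp (fun k' => ⟨a, ha, k', by rw [k, mul_neg, k']⟩)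
        fun k' => ⟨a, ha, k', by rw [k, mul_neg, k', neg_neg]⟩)
    (sq (h1 0) (h1 1)) (sq (h1 0) (h1 2))
  have k3 := prod_one y hx B hd ha
  have k4 := B.sq a ha
  refine ⟨a, ha, η 0 * ε a 0, sq (h1 0) (k4 0), fun i => ?_⟩
  have e1 : η 1 = η 0 * ε a 0 * ε a 1 := by linear_combination -η 0 * k1 - η 1 * h1 0
  have e2 : η 2 = η 0 * ε a 0 * ε a 2 := by linear_combination -η 0 * k2 - η 2 * h1 0
  fin_cases i
  · exact (by linear_combination -η 0 * k4 0 : η 0 = η 0 * ε a 0 * ε a 0)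
  · exact e1
  · exact e2
  · show η 3 = η 0 * ε a 0 * ε a 3
    rw [e1, e2] at h2
    have e3 : η 0 * (ε a 1 * ε a 2) * η 3 = 1 := by
      linear_combination h2 - η 0 * (ε a 1 * ε a 2) * η 3 * sq (h1 0) (k4 0)
    have e4 : η 0 * (ε a 1 * ε a 2) * (η 0 * ε a 0 * ε a 3) = 1 := by
      linear_combination k3 + ε a 0 * ε a 1 * ε a 2 * ε a 3 * h1 0
    exact mul_left_cancel₀ (left_ne_zero_of_mul_eq_one e3) (e3.trans e4.symm)

theorem mem_iff (h : Cx A Γ M₁ M₂) (a : E8 F) : (a : G8 F) ∈ A ↔ ∀ i, ∃ j, Kp a (P i) (P j) := by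
  refine ⟨fun ha => B.prm _ (h.og_mem.2 ha), fun ha => ?_⟩
  choose π hπ using ha
  have h1 : Function.Injective π := fun i j e => by
    by_contra hij
    obtain ⟨v, hv, hv0⟩ := (Submodule.ne_bot_iff _).1 (B.ne j)
    refine gam_ne (og a) hv0 (B.nd (π j) _ (hπ j v hv) fun z hz => ?_)
    obtain ⟨w, hw, rfl⟩ := gam_pre (og a) (hπ i) ((hd _).trans (hd _).symm).le (e ▸ hz)
    exact (polar_map (E_le_O a.2) v w).trans (B.dec.orth j i (Ne.symm hij) v hv w hw)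
  have := finite8 (F := F)
  rw [h.eq_norm y.ne (ne_top y) y.inv, ← inv_mem_iff]
  refine Subgroup.mem_normalizer_fintype fun x hx' => ?_
  obtain ⟨x, rfl⟩ := QuotientGroup.mk_surjective x
  obtain ⟨b, hb, d, hd1, hd2⟩ := exists_sign y hx B hd (η := fun i => ε x (π i)) (fun i => B.sq x hx' _) (by
    have h2 := Equiv.prod_comp (Equiv.ofBijective π (Finite.injective_iff_bijective.1 h1)) (ε x)
    rw [Fin.prod_univ_four, Fin.prod_univ_four, prod_one y hx B hd hx'] at h2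
    exact h2)
  have h2 : (b : G8 F) = (a⁻¹ * x * a : E8 F) := mk_eq_iff.2 ⟨d, hd1, fun v => by
    obtain ⟨w, hw, rfl⟩ := dec_sum B.dec v
    rw [map_sum, map_sum, Finset.smul_sum]
    refine Finset.sum_congr rfl fun i _ => ?_
    rw [e8_mul, e8_mul, B.eig x hx' _ _ (hπ i _ (hw i)), map_smul, B.eig b hb i _ (hw i), smul_smul, ← hd2]
    exact congrArg _ (a.1.symm_apply_apply _)⟩
  rw [inv_inv]
  exact (h2 ▸ hb : ((a⁻¹ * x * a : E8 F) : G8 F) ∈ X)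

theorem d2' (lm : Lm) (sig : BoxSig) (h : Cx A Γ M₁ M₂) : FP3.Good A := by
  by_cases ha : ∃ j, Aniso (Q8 F) (P j)
  · obtain ⟨j, hj⟩ := ha
    exact lm.gi2 lm.je F A P B.dec hd (Or.inl fun _ => B.aniso y hj) (mem_iff y hx B hd h)
  push Not at ha
  by_cases hq : 4 ≤ Nat.card F
  · exact lm.gi2 lm.je F A P B.dec hd (Or.inr ⟨hq, ha⟩) (mem_iff y hx B hd h)
  have hq3 : Nat.card F ≤ 3 := by omega
  have h2 := y.two_ne
  choose u hu hQ ho hs using fun k => (B.nd k).exists_orth h2 (hd k)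
  have hN : ∀ k (c : Fin 2 → F), Q8 F (∑ i, c i • u k i) = c 0 * c 0 * Q8 F (u k 0) + c 1 * c 1 * Q8 F (u k 1) := fun k c => by
    rw [Fin.sum_univ_two, Q_add, QuadraticMap.map_smul, QuadraticMap.map_smul, polar_smul_left, polar_smul_right,
      ho k 0 1 (by decide)]
    simp
  have h3 : ∀ k, Q8 F (u k 1) = -Q8 F (u k 0) := fun k => by
    by_contra hc
    refine ha k fun v hv h0 => ?_
    obtain ⟨c, rfl⟩ := hs k v hv
    rw [hN] at h0
    rw [Fin.sum_univ_two]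
    by_cases c0 : c 0 = 0 <;> by_cases c1 : c 1 = 0
    · rw [c0, c1, zero_smul, zero_smul, add_zero]
    · exact (hQ k 1 (by rw [c0, small_sq hq3 c1] at h0; linear_combination h0)).elim
    · exact (hQ k 0 (by rw [c1, small_sq hq3 c0] at h0; linear_combination h0)).elim
    · exact (hc (by rw [small_sq hq3 c1, small_sq hq3 c0] at h0; linear_combination h0)).elim
  let σ : Fin 4 × Fin 2 ≃ Fin 8 := finProdFinEquiv
  have he : ∀ k i, u (σ.symm (σ (k, i))).1 (σ.symm (σ (k, i))).2 = u k i := fun k i => by rw [σ.symm_apply_apply]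
  refine B.good_fr lm sig h y (fun i => u (σ.symm i).1 (σ.symm i).2) (fun i => hQ _ _) (fun i j hij => ?_)
    (fun i => ⟨_, hu _ _⟩) (fun k v hv h0 => ?_) ⟨σ (0, 0), σ (0, 1), ?_⟩
  · have h4 : σ.symm i ≠ σ.symm j := fun e => hij (σ.symm.injective e)
    generalize σ.symm i = p, σ.symm j = q at h4
    obtain ⟨k, i⟩ := p
    obtain ⟨k', j⟩ := q
    by_cases e : k = k'
    · subst e
      exact ho k i j fun e' => h4 (by rw [e'])
    · exact B.dec.orth k k' e _ (hu _ _) _ (hu _ _)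
  · obtain ⟨c, rfl⟩ := hs k v hv
    rw [hN, h3] at h0
    rw [Fin.sum_univ_two]
    by_cases c0 : c 0 = 0
    · exact ⟨σ (k, 1), c 1, by rw [he, c0, zero_smul, zero_add]⟩
    by_cases c1 : c 1 = 0
    · exact ⟨σ (k, 0), c 0, by rw [he, c1, zero_smul, add_zero]⟩
    exact (h0 (by rw [small_sq hq3 c1, small_sq hq3 c0]; ring)).elim
  · rintro ⟨t, ht⟩
    rw [he, he, h3, mul_neg, small_sq hq3 (hQ 0 0)] at ht
    by_cases t0 : t = 0
    · rw [t0, mul_zero] at ht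
      exact one_ne_zero (neg_eq_zero.1 ht)
    · rw [small_sq hq3 t0] at ht
      exact h2 (by linear_combination -ht)

end planes

/-- **four planes** -/
theorem d2 (lm : Lm) (sig : BoxSig) (h : Cx A Γ M₁ M₂) (y : Cy Γ X 2) (hx : ∀ a : E8 F, (a : G8 F) ∈ X → a * a = 1)
    {f : Fin 4 → (RB.Y2 X → F)} (hd : ∀ k, finrank F (Bl (RB.Y2 X) (f k)) = 2) (hD : Dec (Q8 F) (Bl (RB.Y2 X) ∘ f))
    (hP : Prm (LL Γ) (Bl (RB.Y2 X) ∘ f)) : FP3.Good A := by
  obtain ⟨ε, B⟩ := exists_bk y hx (fun k e => by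
    have h1 := hd k
    rw [e, finrank_bot] at h1
    omega) hD hP
  exact d2' y hx B hd lm sig h

/-- **eight lines** -/
theorem d1 (lm : Lm) (sig : BoxSig) (h : Cx A Γ M₁ M₂) (y : Cy Γ X 2) (hx : ∀ a : E8 F, (a : G8 F) ∈ X → a * a = 1)
    {f : Fin 8 → (RB.Y2 X → F)} (hd : ∀ k, finrank F (Bl (RB.Y2 X) (f k)) = 1) (hD : Dec (Q8 F) (Bl (RB.Y2 X) ∘ f))
    (hP : Prm (LL Γ) (Bl (RB.Y2 X) ∘ f)) : FP3.Good A := by
  obtain ⟨ε, B⟩ := exists_bk y hx (fun k e => by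
    have h1 := hd k
    rw [e, finrank_bot] at h1
    omega) hD hP
  exact d1' lm sig h y hx B hd

end L2b

end Cfsg.Agent.N2C.D4
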