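import Cfsg.Agent.N2.Cl.D4.Core
import Cfsg.Agent.N2.Cl.D4.Cy2

/-!
# N2 (S3519), `PΩ₈⁺(q)` with triality: the local case `r = 2`, eight lines (helper85)
-/

set_option autoImplicit false
set_option linter.unusedSectionVars false

namespace Cfsg.Agent.N2C.D4.Loc2c

open QuadraticMap Module Cfsg.Agent.LieClassical.QuadForms Cfsg.Agent.LieClassical.OrthCore
  Cfsg.Agent.LieClassical.OrthTrans Cfsg.Agent.ClassicalGeometry.OrthSemi Cfsg.Agent.ClassicalGeometry.OrthAut1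
  Cfsg.Agent.ClassicalGeometry.TrialityOct Cfsg.Agent.ClassicalGeometry.Triality
  Cfsg.Agent.H989.OutOrth.Basic Cfsg.Agent.H989.OutOrth.Tri Cfsg.Agent.SB.D4
open Cfsg.Agent.SB.D4.RB (Y2)

variable {F : Type} [Field F] [Fintype F] {A : Subgroup (G8 F)} {Γ : Subgroup (MulAut (G8 F))} {M₁ M₂ : Gam (Q8 F)}
  {X : Subgroup (G8 F)}

/-- frames with different norms -/
theorem frame (lm : Lm) (sig : BoxSig) (h : Cx A Γ M₁ M₂) (h2 : (2 : F) ≠ 0) (e : Fin 8 → V8 F) (h0 : ∀ i, Q8 F (e i) ≠ 0)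
    (ho : ∀ i j, i ≠ j → polar (Q8 F) (e i) (e j) = 0) (hP : ∀ M ∈ LL Γ, ∀ i, ∃ (j : Fin 8) (c : F), M.1 (e i) = c • e j)
    (hm : ∀ i j, ∃ (k : Fin 8) (c : F), pm (M₁⁻¹.1 (e i)) (M₂⁻¹.1 (e j)) = c • e k)
    (hs : ∃ i j, ¬ IsSquare (Q8 F (e i) * Q8 F (e j))) : FP3.Good A :=
  (sig F A Γ M₁ M₂ e h h2 h0 ho hP hm hs).elim fun _ k => h.good_inv lm.g44 h2 k.1 k.2.1 k.2.2

theorem ne_top {r : ℕ} (y : Cy Γ X r) : X ≠ ⊤ := fun e =>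
  noncomm8 (F := F) ⟨⟨fun a b => y.comm a (e.ge trivial) b (e.ge trivial)⟩⟩

variable (y : Cy Γ X 2) (hx : ∀ a : E8 F, (a : G8 F) ∈ X → a * a = 1)
include y hx

/-- common eigenvectors lie in a block -/
theorem mem_block {ι : Type} {f : ι → (Y2 X → F)} (hD : Dec (Q8 F) (Bl (Y2 X) ∘ f)) {v : V8 F} (h0 : v ≠ 0)
    (hv : ∀ a : E8 F, (a : G8 F) ∈ X → Fp a v) : ∃ k, v ∈ Bl (Y2 X) (f k) := by
  have h1 : ∀ g : Y2 X, ∃ l : F, g.1 v = l • v := by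
    rintro ⟨_, a, ha, rfl⟩
    exact hv a ha
  choose l hl using h1
  have h2 : v ∈ Bl (Y2 X) fun g => 2 * l g := (Rb.mem_Bl2 y hx).2 fun g => by
    rw [mul_div_cancel_left₀ _ (Rb.two_ne y), hl]
  by_contra hc
  exact h0 (hD.perp nondeg8' fun k w hw => (Rb.dec2 y hx).orth _ (f k) (fun e => hc ⟨k, e ▸ h2⟩) v h2 w hw)

/-- products of common eigenvectors -/
theorem pm_eig (h : Cx A Γ M₁ M₂) {θ θ' : Y2 X → F} {u v : V8 F} (hu : u ∈ Bl (Y2 X) θ) (hv : v ∈ Bl (Y2 X) θ') (a : E8 F)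
    (ha : (a : G8 F) ∈ X) : Fp a (pm (M₁⁻¹.1 u) (M₂⁻¹.1 v)) := by
  obtain ⟨b, c, t⟩ := exists_T3 a
  have k1 := conjE_eig (M := M₁⁻¹) (Rb.eig2 y hx hu ((h.sym1 y.inv t).1 ha))
  have k2 := conjE_eig (M := M₂⁻¹) (Rb.eig2 y hx hv ((h.sym2 y.inv t).1 ha))
  rw [conjE_inv_conjE] at k1 k2
  obtain ⟨l, k1⟩ := k1
  obtain ⟨l', k2⟩ := k2
  exact ⟨l * l', by rw [t, k1, k2, smul_pm, pm_smul, smul_smul]⟩

theorem sign {θ : Y2 X → F} {v : V8 F} (hv : v ∈ Bl (Y2 X) θ) (h0 : v ≠ 0) {a : E8 F} (ha : (a : G8 F) ∈ X) :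
    a.1 v = v ∨ a.1 v = -v := by
  rw [Rb.eig2 y hx hv ha]
  rcases sq_cases (Rb.eig2' y hx hv h0 ha) with k | k <;> rw [k]
  exacts [Or.inl (one_smul F v), Or.inr (neg_one_smul F v)]

/-- different blocks have different characters -/
theorem sep {θ θ' : Y2 X → F} (hθ : θ ≠ θ') {u v : V8 F} (hu : u ∈ Bl (Y2 X) θ) (hv : v ∈ Bl (Y2 X) θ') (h0 : u ≠ 0)
    (h0' : v ≠ 0) : ∃ a : E8 F, (a : G8 F) ∈ X ∧ ∃ c : F, a.1 u = c • u ∧ a.1 v = -c • v := by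
  obtain ⟨⟨_, a, ha, rfl⟩, k⟩ := Function.ne_iff.1 hθ
  refine ⟨a, ha, _, Rb.eig2 y hx hu ha, ?_⟩
  rw [Rb.eig2 y hx hv ha, (mul_self_eq_mul_self_iff.1 ((Rb.eig2' y hx hv h0' ha).trans
    (Rb.eig2' y hx hu h0 ha).symm)).resolve_left fun e => k ((div_left_inj' (Rb.two_ne y)).1 e).symm]

omit y hx in
/-- **eight lines** -/
theorem d1 (lm : Lm) (sig : BoxSig) (h : Cx A Γ M₁ M₂) (y : Cy Γ X 2) (hx : ∀ a : E8 F, (a : G8 F) ∈ X → a * a = 1)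
    (f : Fin 8 → (Y2 X → F)) (hd : ∀ k, finrank F (Bl (Y2 X) (f k)) = 1) (hD : Dec (Q8 F) (Bl (Y2 X) ∘ f))
    (hP : Prm (LL Γ) (Bl (Y2 X) ∘ f)) : FP3.Good A := by
  have h2 := Rb.two_ne y
  have he : ∀ k, ∃ v ∈ Bl (Y2 X) (f k), Q8 F v ≠ 0 := fun k => (hD.nd nondeg8' k).exists_nonsing fun h0 => by
    have h1 := hd k
    rw [show Bl (Y2 X) (f k) = ⊥ from h0, finrank_bot] at h1
    exact zero_ne_one h1
  choose e he he' using he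
  have n0 : ∀ {v : V8 F}, Q8 F v ≠ 0 → v ≠ 0 := fun k e => k (by rw [e, map_zero])
  have hl : ∀ k, ∀ v ∈ Bl (Y2 X) (f k), ∃ c : F, v = c • e k := fun k v hv =>
    ((finrank_eq_one_iff_of_nonzero' (⟨e k, he k⟩ : Bl (Y2 X) (f k)) fun h0 => n0 (he' k) (congrArg Subtype.val h0)).1
      (hd k) ⟨v, hv⟩).imp fun _ hc => (congrArg Subtype.val hc).symm
  by_cases hs : ∃ i j, ¬ IsSquare (Q8 F (e i) * Q8 F (e j))
  · refine frame lm sig h h2 e he' (fun i j hij => hD.orth i j hij _ (he i) _ (he j))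
      (fun M hM i => (hP M hM i).imp fun j hj => hl j _ (hj _ (he i))) (fun i j => ?_) hs
    exact (mem_block y hx hD (n0 (by rw [norm_pm]; exact mul_ne_zero (Q_ne _ (he' i)) (Q_ne _ (he' j))))
      (pm_eig y hx h (he i) (he j))).imp fun k hk => hl k _ hk
  push Not at hs
  have hu : ∀ k, ∃ v ∈ Bl (Y2 X) (f k), Q8 F v = Q8 F (e 0) := fun k => by
    obtain ⟨s, k1⟩ := hs k 0
    have k2 : s ≠ 0 := fun k2 => mul_ne_zero (he' k) (he' 0) (by rw [k1, k2, mul_zero])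
    refine ⟨(Q8 F (e 0) / s) • e k, Submodule.smul_mem _ _ (he k), ?_⟩
    rw [QuadraticMap.map_smul, smul_eq_mul]
    field_simp
    linear_combination Q8 F (e 0) * k1
  choose u hu hu' using hu
  have k0 : ∀ k, u k ≠ 0 := fun k => n0 (hu' k ▸ he' 0)
  refine lm.gn4 F A X u h2 (hu' 0 ▸ he' 0) (fun i => (hu' i).trans (hu' 0).symm)
    (fun i j hij => hD.orth i j hij _ (hu i) _ (hu j)) (fun a ha => ⟨fun i => sign y hx (hu i) (k0 i) ha, ?_⟩)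
    (fun i j hij => sep y hx (fun k => ?_) (hu i) (hu j) (k0 i) (k0 j)) (h.eq_norm y.ne (ne_top y) y.inv)
  · by_cases k : ∃ d, Sc a d
    · exact Or.inl k
    · exact Or.inr (Rb.ts2 y hx ha (fun d hd => k ⟨d, hd⟩) (one_mul 1)).1
  · have k1 := hD.orth i j hij _ (he i) _ (show e i ∈ Bl (Y2 X) (f j) from k ▸ he i)
    rw [polar_self'] at k1
    exact mul_ne_zero h2 (he' i) k1

end Cfsg.Agent.N2C.D4.Loc2c
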