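import Cfsg.Agent.N2.Cl.D4.Loc2b

/-!
# N2 (S3519), `PΩ₈⁺(q)` with triality: elementary abelian `2`-groups whose lifts are involutions (helper46)
-/

set_option autoImplicit false
set_option linter.unusedSectionVars false

namespace Cfsg.Agent.N2C.D4

open QuadraticMap Module Cfsg.Agent.LieClassical.QuadForms Cfsg.Agent.LieClassical.OrthCore
  Cfsg.Agent.LieClassical.OrthTrans Cfsg.Agent.ClassicalGeometry.OrthSemi Cfsg.Agent.ClassicalGeometry.OrthAut1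
  Cfsg.Agent.ClassicalGeometry.TrialityOct Cfsg.Agent.ClassicalGeometry.Triality
  Cfsg.Agent.H989.OutOrth.Basic Cfsg.Agent.H989.OutOrth.Tri Cfsg.Agent.SB.D4

namespace L2b

variable {F : Type} [Field F] [Fintype F] {A : Subgroup (G8 F)} {Γ : Subgroup (MulAut (G8 F))} {M₁ M₂ : Gam (Q8 F)}
  {X : Subgroup (G8 F)}

theorem Bk.mk_eq {ι : Type} [Fintype ι] {P : ι → Submodule F (V8 F)} {ε : E8 F → ι → F} (B : Bk Γ X P ε) {a b : E8 F}
    (ha : (a : G8 F) ∈ X) (hb : (b : G8 F) ∈ X) {d : F} (hd : d * d = 1) (h : ∀ i, ε b i = d * ε a i) :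
    (a : G8 F) = b := mk_eq_iff.2 ⟨d, hd, fun v => by
  obtain ⟨w, hw, rfl⟩ := dec_sum B.dec v
  rw [map_sum, map_sum, Finset.smul_sum]
  exact Finset.sum_congr rfl fun i _ => by rw [B.eig a ha i _ (hw i), B.eig b hb i _ (hw i), h, mul_smul]⟩

theorem d4' (lm : Lm) (h : Cx A Γ M₁ M₂) (y : Cy Γ X 2) (hx : ∀ a : E8 F, (a : G8 F) ∈ X → a * a = 1)
    {P : Fin 2 → Submodule F (V8 F)} {ε : E8 F → Fin 2 → F} (B : Bk Γ X P ε) : FP3.Good A := by
  have key : ∀ a : E8 F, (a : G8 F) ∈ X → (a : G8 F) ≠ 1 → ε a 1 = -ε a 0 := fun a ha h1 =>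
    (mul_self_eq_mul_self_iff.1 ((B.sq a ha 1).trans (B.sq a ha 0).symm)).resolve_left fun e =>
      h1 (B.mk_eq (one_mem X : ((1 : E8 F) : G8 F) ∈ X) ha (B.sq a ha 0) fun i => by
        rw [B.one, mul_one]
        fin_cases i
        exacts [rfl, e]).symm
  obtain ⟨z, hz, hn⟩ := Rb.exists_nonsc y
  have h1 : (z : G8 F) ≠ 1 := fun e => (mk_eq_one_iff.1 e).elim hn
  refine h.good_inv lm.g44 y.two_ne (hx z hz) (Rb.ts2 y hx hz hn (by ring)).1 fun σ hσ => ?_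
  have h2 := y.inv σ hσ _ hz
  have h3 : σ (z : G8 F) ≠ 1 := σ.map_ne_one_iff.2 h1
  obtain ⟨b, hb⟩ := QuotientGroup.mk_surjective (σ (z : G8 F))
  rw [← hb] at h2 h3 ⊢
  have h4 : ε z 0 = ε z 0 * ε b 0 * ε b 0 := by rw [mul_assoc, B.sq b h2, mul_one]
  refine B.mk_eq h2 hz (d := ε z 0 * ε b 0) (by linear_combination ε b 0 * ε b 0 * B.sq z hz 0 + B.sq b h2 0) fun i => ?_
  fin_cases i
  · exact h4
  · show ε z 1 = ε z 0 * ε b 0 * ε b 1
    rw [key z hz h1, key b h2 h3, mul_neg, ← h4]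

/-- **case I** -/
theorem caseI (lm : Lm) (sig : BoxSig) (h : Cx A Γ M₁ M₂) (y : Cy Γ X 2)
    (hx : ∀ a : E8 F, (a : G8 F) ∈ X → a * a = 1) : FP3.Good A := by
  obtain ⟨n, d, f, h8, h4, hd, hD, hP⟩ := Rb.exists_blocks y hx
  have hc : (n = 1 ∧ d = 4) ∨ (n = 3 ∧ d = 2) ∨ (n = 7 ∧ d = 1) := by
    interval_cases d <;> omega
  rcases hc with ⟨rfl, rfl⟩ | ⟨rfl, rfl⟩ | ⟨rfl, rfl⟩
  · obtain ⟨ε, B⟩ := exists_bk y hx (fun k e => by
      have h1 := hd k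
      rw [e, finrank_bot] at h1
      omega) hD hP
    exact d4' lm h y hx B
  · exact d2 lm sig h y hx hd hD hP
  · exact d1 lm sig h y hx hd hD hP

end L2b

end Cfsg.Agent.N2C.D4
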