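import Cfsg.Agent.N2.Cl.D4.Lie
import Cfsg.Agent.H198.TriDia
import Cfsg.Agent.H206.OrthBal
import Cfsg.Agent.Schreier.ClassBase

/-!
# N2 (S3519), `PΩ₈⁺(q)`: symmetric compositions with a central anti-automorphism have a para-unit (helper58)
-/

set_option autoImplicit false
set_option linter.unusedSectionVars false

namespace Cfsg.Agent.N2C.D4.PsiA

open QuadraticMap Module Cfsg.Agent.LieClassical.QuadForms Cfsg.Agent.LieClassical.OrthCore
  Cfsg.Agent.LieClassical.OrthTrans Cfsg.Agent.ClassicalGeometry.OrthSemi Cfsg.Agent.ClassicalGeometry.OrthAut1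
  Cfsg.Agent.ClassicalGeometry.TrialityOct Cfsg.Agent.ClassicalGeometry.Triality
  Cfsg.Agent.H989.OutOrth.Basic Cfsg.Agent.H989.OutOrth.Tri Cfsg.Agent.SB.D4 LieT

variable {F : Type} [Field F] [Fintype F]

/-- symmetric compositions -/
structure SC (m : V8 F →ₗ[F] V8 F →ₗ[F] V8 F) : Prop where
  l : ∀ x y, m (m x y) x = Q8 F x • y
  r : ∀ x y, m x (m y x) = Q8 F x • y
  norm : ∀ x y, Q8 F (m x y) = Q8 F x * Q8 F y
  assoc : ∀ x y z, polar (Q8 F) (m x y) z = polar (Q8 F) x (m y z)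
  rk : ∀ v a b, (∀ x, m x v ∈ Submodule.span F {a, b}) → v = 0

/-- idempotents -/
def Id (m : V8 F →ₗ[F] V8 F →ₗ[F] V8 F) (e : V8 F) : Prop := e ≠ 0 ∧ m e e = e

namespace SC

variable {m : V8 F →ₗ[F] V8 F →ₗ[F] V8 F} (h : SC m) {e f : V8 F}
include h

theorem lin_l (x z y : V8 F) : m (m x y) z + m (m z y) x = polar (Q8 F) x z • y := by
  have h1 := h.l (x + z) y
  simp only [map_add, LinearMap.add_apply, h.l] at h1
  rw [Q_add, add_smul, add_smul] at h1
  linear_combination (exp := 1) h1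

theorem lin_r (x z y : V8 F) : m x (m y z) + m z (m y x) = polar (Q8 F) x z • y := by
  have h1 := h.r (x + z) y
  simp only [map_add, LinearMap.add_apply, h.r] at h1
  rw [Q_add, add_smul, add_smul] at h1
  linear_combination (exp := 1) h1

theorem norm_id (he : Id m e) : Q8 F e = 1 := by
  have h1 := h.l e e
  rw [he.2, he.2] at h1
  exact smul_left_injective F he.1 (h1.symm.trans (one_smul F e).symm)

theorem rl (he : Id m e) (x : V8 F) : m (m e x) e = x := by rw [h.l, h.norm_id he, one_smul]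
theorem lr (he : Id m e) (x : V8 F) : m e (m x e) = x := by rw [h.r, h.norm_id he, one_smul]

theorem ll (he : Id m e) (x : V8 F) : m e (m e x) = polar (Q8 F) e x • e - m x e := by
  rw [← h.lin_r e x e, he.2, add_sub_cancel_right]

theorem rr (he : Id m e) (x : V8 F) : m (m x e) e = polar (Q8 F) e x • e - m e x := by
  rw [polar_comm, ← h.lin_l x e e, he.2, add_sub_cancel_right]

theorem ll_aut (he : Id m e) (y z : V8 F) : m e (m e (m y z)) = m (m e (m e y)) (m e (m e z)) := by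
  have h1 : ∀ y z, m e (m y z) = m (polar (Q8 F) e z • e - z) (m y e) := fun y z => by
    rw [map_sub, map_smul, LinearMap.sub_apply, LinearMap.smul_apply, h.lr he, ← h.lin_r e z y, add_sub_cancel_right]
  have h2 : m (polar (Q8 F) e z • e - z) e = polar (Q8 F) e z • e - m z e := by
    rw [map_sub, map_smul, LinearMap.sub_apply, LinearMap.smul_apply, he.2]
  have h3 : polar (Q8 F) e (m y e) = polar (Q8 F) e y := by rw [← h.assoc, polar_comm, ← h.assoc, he.2]
  rw [h1 y z, h1, h.ll he y, h.ll he z, h2, h3]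

theorem inj (h1 : ∀ z, polar (Q8 F) e z • e - m z e = polar (Q8 F) f z • f - m z f) : e = f :=
  sub_eq_zero.1 (h.rk _ e f fun x => Submodule.mem_span_pair.2 ⟨polar (Q8 F) e x, -polar (Q8 F) f x, by
    rw [map_sub]
    linear_combination (norm := module) h1 x⟩)

/-- left multiplication by an idempotent -/
def lm (he : Id m e) : GL8 F := LinearEquiv.ofLinearMap (m e) (m.flip e) (LinearMap.ext (h.lr he)) (LinearMap.ext (h.rl he))

theorem lm_mem (he : Id m e) : h.lm he * h.lm he ∈ E (Q8 F) :=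
  H206.OrthBal.sq_mem_E good8 (mem_O.2 fun x => (h.norm e x).trans (by rw [h.norm_id he, one_mul]))

theorem para (M : V8 F ≃+ V8 F) (hM : ∀ u w, M (m u w) = m (M w) (M u))
    (hc : ∀ g ∈ E (Q8 F), (∀ u w, g (m u w) = m (g u) (g w)) → ∃ c : F, ∀ v, M (g v) = c • g (M v)) (he : Id m e) :
    ∃ v, v ≠ 0 ∧ ∀ g ∈ E (Q8 F), (∀ u w, g (m u w) = m (g u) (g w)) → g v = v := by
  have a1 : ∀ {e}, Id m e → Id m (M e) := fun {e} he => ⟨(map_ne_zero_iff M M.injective).2 he.1, by rw [← hM, he.2]⟩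
  have a2 : ∀ {e}, Id m e → ∀ z, m e (m e z) = m (m z (M e)) (M e) := fun {e} he z => by
    obtain ⟨c, hc⟩ := hc _ (h.lm_mem he) (h.ll_aut he)
    have b1 : ∀ v, M (m e (m e v)) = c • m e (m e (M v)) := hc
    have b2 := b1 e
    rw [he.2, he.2] at b2
    have b3 : m e (m e (M e)) ≠ 0 := fun b3 => (a1 he).1 (by rw [b2, b3, smul_zero])
    have b4 : c ≠ 0 := fun b4 => (a1 he).1 (by rw [b2, b4, zero_smul])
    have b5 := (a1 he).2
    rw [b2, map_smul, map_smul, LinearMap.smul_apply, ← h.ll_aut he, (a1 he).2] at b5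
    have b6 : c = 1 := smul_left_injective F b3 ((smul_right_injective _ b4 b5).trans (one_smul F _).symm)
    obtain ⟨z, rfl⟩ := M.surjective z
    rw [← hM, ← hM, b1, b6, one_smul]
  have a3 : ∃ g, Id m g ∧ M g = g := by
    by_cases c1 : M e = e
    · exact ⟨e, he, c1⟩
    have hf := a1 he
    have b1 : M (M e) = e := h.inj fun z => by
      rw [← h.ll he, ← h.ll (a1 hf), a2 he]
      have b2 := a2 hf (m (M (M e)) (m (M (M e)) z))
      rw [h.rl (a1 hf), h.rl (a1 hf)] at b2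
      nth_rw 2 [← b2]
      rw [h.rl hf, h.rl hf]
    have b2 := (a2 he e).trans (h.rr hf e)
    have b3 := (h.ll he (M e)).symm.trans (a2 he (M e))
    rw [he.2, he.2, polar_comm] at b2
    rw [hf.2, hf.2] at b3
    have b4 : polar (Q8 F) e (M e) + 1 = 0 := (smul_eq_zero.1 (show (polar (Q8 F) e (M e) + 1) • (M e - e) = 0 by
      linear_combination (norm := module) -b2 - b3)).resolve_right (sub_ne_zero.2 c1)
    have b5 : m (M e) e = -e - M e := by linear_combination (norm := module) b2 + b4 • M e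
    have b6 : m e (M e) = -e - M e := by
      have b7 := h.rl hf e
      rw [b5, map_sub, map_neg, LinearMap.sub_apply, LinearMap.neg_apply, hf.2] at b7
      linear_combination (norm := module) -b7
    refine ⟨-e - M e, ⟨fun b7 => c1 ?_, ?_⟩, by rw [map_sub, map_neg, b1]; abel⟩
    · have b8 : M e = -e := (sub_eq_zero.1 b7).symm
      have b9 := hf.2
      rw [b8, map_neg, map_neg, LinearMap.neg_apply, neg_neg, he.2] at b9
      exact b8.trans b9.symm
    · simp only [map_sub, map_neg, LinearMap.sub_apply, LinearMap.neg_apply, he.2, hf.2, b5, b6]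
      abel
  obtain ⟨g, hg, a3⟩ := a3
  have a4 : ∀ z, polar (Q8 F) g z • g - m z g = z := fun z => by
    have b1 : ∀ z, m z g = m g z := fun z => by
      have b2 := a2 hg z
      rw [a3, h.ll hg, h.rr hg] at b2
      exact sub_right_injective b2
    rw [← h.ll hg, ← b1 z, h.lr hg]
  refine ⟨g, hg.1, fun a ha a5 => h.inj fun z => ?_⟩
  obtain ⟨z, rfl⟩ := a.surjective z
  rw [a4, polar_map (E_le_O ha), ← a5, ← map_smul, ← map_sub, a4]

end SC

open H198.TriBase H198.TriDia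

theorem dia_eq {τ : Gam (Q8 F)} (hτ : TriS τ τ τ) (u w : V8 F) : dia τ u w = pm (τ⁻¹.1 u) (τ.1 w) := by
  rw [dia, aut_oconj hτ, aut_oconj hτ.inv, pm]

theorem tri_pm {τ : Gam (Q8 F)} (hτ : TriS τ τ τ) (u w : V8 F) : τ.1 (pm u w) = pm (τ.1 u) (τ.1 w) := by
  rw [pm, hτ, aut_oconj hτ, aut_oconj hτ, pm]

/-- **an anti-automorphism which centralises the automorphisms gives a para-unit** -/
theorem para {τ N : Gam (Q8 F)} (hτ : TriS τ τ τ) (h3 : τ ^ 3 = 1) {s : F} (hs : s ≠ 0)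
    (hN : ∀ u w, N.1 (dia τ u w) = s • dia τ (N.1 w) (N.1 u))
    (hc : ∀ g ∈ AutD τ, ∃ c : F, ∀ v, N.1 (g v) = c • g (N.1 v)) : ∃ v, v ≠ 0 ∧ ∀ g ∈ AutD τ, g v = v := by
  obtain ⟨σ, c, hσ⟩ := τ.2
  obtain ⟨ψ, d, hψ⟩ := N.2
  obtain rfl := aut_mult hτ hσ
  have a1 : ∀ x, τ.1 (τ.1 (τ.1 x)) = x := fun x => by
    rw [pow_succ, pow_two] at h3
    exact congrArg (fun t : Gam (Q8 F) => t.1 x) h3
  have a2 : ∀ x, τ⁻¹.1 x = τ.1 (τ.1 x) := fun x => τ.1.injective (by rw [a1]; exact τ.1.apply_symm_apply x)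
  have a3 : ∀ u w, dia τ u w = pm (τ.1 (τ.1 u)) (τ.1 w) := fun u w => by rw [dia_eq hτ, a2]
  have a4 : dia τ (one8 F) (one8 F) = one8 F := by
    rw [a3, aut_one hτ, aut_one hτ, pm, oconj_one, one_omul]
  have a5 : one8 F ≠ 0 := fun e0 => one_ne (F := F) (by rw [e0, QuadraticMap.map_zero])
  have a6 : ∀ t, σ t = t := fun t => by
    have b2 : ∀ t, ψ (σ (σ t)) = σ (ψ t) := fun t => smul_left_injective F (gam_ne N a5) (by
      have b3 := hN (t • one8 F) (one8 F)
      have b4 := hN (one8 F) (one8 F)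
      rw [a4, a3] at b4
      rw [a3, a3, hσ.smul, hσ.smul, smul_pm, hψ.smul, hψ.smul, hσ.smul, pm_smul, ← a3, a4, smul_comm, ← b4] at b3
      exact b3)
    exact σ.injective (ψ.injective ((b2 t).trans (RingEquiv.congr_fun (Schreier.ClassBase.ringAut_comm σ ψ) t)))
  have a7 : ∀ (t : F) (x : V8 F), τ.1 (t • x) = t • τ.1 x := fun t x => by rw [hσ.smul, a6]
  have a8 : ∀ x, Q8 F (τ.1 x) = Q8 F x := fun x => by rw [hσ.form, a6, one_mul]
  have a9 : ∀ x y, polar (Q8 F) (τ.1 x) (τ.1 y) = polar (Q8 F) x y := fun x y => by rw [hσ.polar, a6, one_mul]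
  let m : V8 F →ₗ[F] V8 F →ₗ[F] V8 F := LinearMap.mk₂ F (dia τ)
    (fun x x' y => by rw [a3, a3, a3, hσ.add, hσ.add, add_pm]) (fun t x y => by rw [a3, a3, a7, a7, smul_pm])
    (fun x y y' => by rw [a3, a3, a3, hσ.add, pm_add]) (fun t x y => by rw [a3, a3, a7, pm_smul])
  have hm : ∀ u w, m u w = pm (τ.1 (τ.1 u)) (τ.1 w) := a3
  have h : SC m := by
    refine ⟨fun x y => ?_, fun x y => ?_, fun x y => ?_, fun x y z => ?_, fun v a b hv => ?_⟩
    · rw [hm, hm, tri_pm hτ, tri_pm hτ, a1, a1, pm_pm_left, a8]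
    · rw [hm, hm, tri_pm hτ, a1, pm_pm_right, a8, a8]
    · rw [hm, norm_pm, a8, a8, a8]
    · rw [hm, hm, polar_pm, ← a9, a1, tri_pm hτ]
    · by_contra h0
      have b1 : τ.1 v ≠ 0 := gam_ne τ h0
      have b2 : finrank F (LinearMap.range (pr (τ.1 v))) ≤ 2 := by
        classical
        refine (Submodule.finrank_mono (t := Submodule.span F (({a, b} : Finset (V8 F)) : Set (V8 F))) ?_).trans
          ((finrank_span_finset_le_card _).trans Finset.card_le_two)
        rintro _ ⟨x, rfl⟩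
        have := hv (τ.1 x)
        rwa [hm, a1, ← Finset.coe_pair] at this
      by_cases c1 : Q8 F (τ.1 v) = 0
      · rw [finrank_pr c1 b1] at b2
        omega
      · rw [LinearMap.finrank_range_of_inj (pr_injective c1), finrank8] at b2
        omega
  let M : V8 F ≃+ V8 F := ({ N.1 with map_add' := hψ.add } : V8 F ≃+ V8 F).trans
    (LinearEquiv.smulOfNeZero F (V8 F) s hs).toAddEquiv
  have hM : ∀ x, M x = s • N.1 x := fun _ => rfl
  obtain ⟨v, b1, b2⟩ := h.para M (fun u w => by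
    rw [hM, hM, hM, map_smul, map_smul, LinearMap.smul_apply]
    exact congrArg (s • ·) (hN u w)) (fun g hg b3 => by
    obtain ⟨c, hc⟩ := hc g ⟨hg, b3⟩
    exact ⟨c, fun v => by rw [hM, hM, hc, map_smul, smul_comm]⟩) ⟨a5, a4⟩
  exact ⟨v, b1, fun g hg => b2 g hg.1 hg.2⟩

end Cfsg.Agent.N2C.D4.PsiA
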